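import Cfsg.Agent.H3.Co1Mult.Data2

/-! The checks of the certificate at 2 for the first Conway group. -/

set_option autoImplicit false
set_option maxRecDepth 100000

namespace Cfsg.Agent.H3.Co1Mult.P2

theorem pc_ok : pc.ok cert = true := by decide +kernel

theorem rows_ok : cert.rowsOk pc = true :=
  rowsOk_of_fast (S := rowsS) rfl (by decide +kernel)

theorem combos_ok : cert.combosOk pc = true := combosOk_of_fast (S := rowsS) (by decide) rfl (by decide +kernel)

end Cfsg.Agent.H3.Co1Mult.P2
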