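import Cfsg.Agent.H3.Co1Mult.Data2

/-! The checks of the elements at 2 for the first Conway group. -/

set_option autoImplicit false
set_option maxRecDepth 100000

namespace Cfsg.Agent.H3.Co1Mult.P2

theorem mats_ok : dat.matsOk = true := by decide +kernel

theorem prods_ok : dat.prodsOk = true := by decide +kernel

theorem rels_ok : dat.relsOk pc = true := by decide +kernel

theorem sep_ok : dat.sepOk pc = true := by decide +kernel

theorem conj_ok : cert.eqns.all dat.conjOk = true := by decide +kernel

theorem dat_ok : dat.ok pc cert = true := by
  rw [MatData.ok, mats_ok, prods_ok, rels_ok, sep_ok, conj_ok]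
  decide +kernel

end Cfsg.Agent.H3.Co1Mult.P2
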