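import Cfsg.Agent.H3.Co1Mult.Fast

/-!
A check of certificate combinations modulo four by bit planes.
-/

set_option autoImplicit false

namespace Cfsg.Agent.H3.Co1Mult

open Cfsg.Agent.H13.SylMult Cfsg.Agent.H16

/-- Addition modulo four in every position: low bits first. -/
def add4 (a b : ℕ × ℕ) : ℕ × ℕ := (a.1 ^^^ b.1, (a.2 ^^^ b.2) ^^^ (a.1 &&& b.1))

/-- Multiples modulo four. -/
def scale4 (k : ℕ) (a : ℕ × ℕ) : ℕ × ℕ :=
  if k = 0 then (0, 0) else if k = 1 then a else if k = 2 then add4 a a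
  else add4 (add4 a a) a

/-- Evaluate a pair before use. -/
noncomputable def force2 {α : Type} (a : ℕ × ℕ) (f : ℕ × ℕ → α) : α :=
  forceNat a.1 fun u => forceNat a.2 fun v => f (u, v)

theorem force2_eq {α : Type} (a : ℕ × ℕ) (f : ℕ × ℕ → α) : force2 a f = f a := by
  simp [force2]

/-- The digit in a position. -/
def val4 (a : ℕ × ℕ) (j : ℕ) : ℕ :=
  (if a.1.testBit j then 1 else 0) + 2 * (if a.2.testBit j then 1 else 0)

theorem val4_add (a b : ℕ × ℕ) (j : ℕ) : val4 (add4 a b) j = (val4 a j + val4 b j) % 4 := by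
  simp only [val4, add4, Nat.testBit_xor, Nat.testBit_and]
  cases a.1.testBit j <;> cases a.2.testBit j <;> cases b.1.testBit j <;> cases b.2.testBit j <;> rfl

theorem val4_zero (j : ℕ) : val4 (0, 0) j = 0 := by simp [val4]

theorem val4_scale (a : ℕ × ℕ) (j : ℕ) {k : ℕ} (hk : k < 4) :
    val4 (scale4 k a) j = k * val4 a j % 4 := by
  have h4 : val4 a j < 4 := by unfold val4; split_ifs <;> omega
  interval_cases k <;> simp [scale4, val4_add, val4_zero] <;> omega

/-- The unit of a position: the bit in the place shifted by 64 and a tag below it, which spreads the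
low digits. -/
noncomputable def unit4 (a : ℕ) : ℕ :=
  2 ^ (a + 64) ||| a * 2654435761 % 18446744073709551615

theorem testBit_unit4 (a x : ℕ) : (unit4 a).testBit (x + 64) = decide (a = x) := by
  have h : a * 2654435761 % 18446744073709551615 < 2 ^ (x + 64) :=
    lt_of_lt_of_le ((Nat.mod_lt _ (by norm_num)).trans (by norm_num : 18446744073709551615 < 2 ^ 64))
      (Nat.pow_le_pow_right (by norm_num) (by omega))
  rw [unit4, Nat.testBit_or, Nat.testBit_lt_two_pow h, Bool.or_false, Nat.testBit_two_pow]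
  simp

/-- Counting modulo four, from given planes. -/
noncomputable def cntGo (l : List ℕ) : ℕ → ℕ → ℕ × ℕ :=
  List.rec (motive := fun _ => ℕ → ℕ → ℕ × ℕ) (fun u v => (u, v))
    (fun a _ ih u v => forceNat (unit4 a) fun w => forceNat (u ^^^ w) fun u' =>
      forceNat (v ^^^ (u &&& w)) fun v' => ih u' v') l

/-- The counts of a list modulo four, in the positions of its elements. -/
noncomputable def cnt4 (l : List ℕ) : ℕ × ℕ := cntGo l 0 0

theorem val4_cntGo : ∀ (l : List ℕ) (u v x : ℕ),
    val4 (cntGo l u v) (x + 64) = (val4 (u, v) (x + 64) + l.count x) % 4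
  | [], u, v, x => by
    have h4 : val4 (u, v) (x + 64) < 4 := by unfold val4; split_ifs <;> omega
    simp [cntGo, Nat.mod_eq_of_lt h4]
  | a :: l, u, v, x => by
    have e : cntGo (a :: l) u v = cntGo l (add4 (u, v) (unit4 a, 0)).1 (add4 (u, v) (unit4 a, 0)).2 := by
      simp [cntGo, add4]
    rw [e, val4_cntGo l, Prod.mk.eta, val4_add, List.count_cons]
    have : val4 (unit4 a, 0) (x + 64) = if a = x then 1 else 0 := by simp [val4, testBit_unit4]
    rw [this]
    by_cases h : a = x
    · simp [h]; omega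
    · simp [h]

theorem val4_cnt4 (l : List ℕ) (x : ℕ) : val4 (cnt4 l) (x + 64) = l.count x % 4 := by
  rw [cnt4, val4_cntGo, val4_zero, zero_add]

/-- A row modulo four. -/
noncomputable def row4 (pn : List ℕ × List ℕ) : ℕ × ℕ :=
  force2 (cnt4 pn.1) fun p => force2 (cnt4 pn.2) fun n => add4 p (scale4 3 n)

theorem val4_row4 (pn : List ℕ × List ℕ) (x : ℕ) :
    (val4 (row4 pn) (x + 64) : ℤ) = ((pn.1.count x : ℤ) - (pn.2.count x : ℤ)) % 4 := by
  rw [row4, force2_eq, force2_eq, val4_add, val4_scale _ _ (by norm_num : 3 < 4), val4_cnt4, val4_cnt4]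
  omega

/-- Evaluate a list of pairs before use. -/
noncomputable def force2L {α : Type} (l : List (ℕ × ℕ)) (f : List (ℕ × ℕ) → α) : α :=
  List.rec (motive := fun _ => (List (ℕ × ℕ) → α) → α) (fun f => f [])
    (fun a _ ih f => force2 a fun a => ih fun t => f (a :: t)) l f

theorem force2L_eq {α : Type} : ∀ (l : List (ℕ × ℕ)) (f : List (ℕ × ℕ) → α), force2L l f = f l
  | [], _ => rfl
  | a :: l, f => by
    show force2 a (fun a => force2L l fun t => f (a :: t)) = f (a :: l)
    rw [force2_eq, force2L_eq l]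

/-- The entry of a list of packed rows. -/
noncomputable def nth2 (R : List (ℕ × ℕ)) : ℕ → ℕ × ℕ :=
  List.rec (motive := fun _ => ℕ → ℕ × ℕ) (fun _ => (0, 0))
    (fun a _ ih i => Nat.rec (motive := fun _ => ℕ × ℕ) a (fun j _ => ih j) i) R

theorem nth2_eq : ∀ (R : List (ℕ × ℕ)) (i : ℕ), nth2 R i = R.getD i (0, 0)
  | [], i => by simp [nth2]
  | a :: R, 0 => rfl
  | a :: R, i + 1 => by
    show nth2 R i = _
    rw [nth2_eq R i, List.getD_cons_succ]

/-- A combination of packed rows. -/
noncomputable def lin4 (R : List (ℕ × ℕ)) : List (ℕ × ℤ) → ℕ × ℕ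
  | [] => (0, 0)
  | (i, x) :: t => force2 (lin4 R t) fun p => force2 (nth2 R i) fun r =>
      forceNat (x % 4).toNat fun k => force2 (scale4 k r) fun q => add4 p q

/-- A combination of packed rows, from given planes. -/
noncomputable def linK (R : List (ℕ × ℕ)) (c : List (ℕ × ℤ)) : ℕ → ℕ → ℕ × ℕ :=
  List.rec (motive := fun _ => ℕ → ℕ → ℕ × ℕ) (fun u v => (u, v))
    (fun it _ ih u v => forceNat (it.2 % 4).toNat fun k => force2 (nth2 R it.1) fun r =>
      force2 (scale4 k r) fun q => forceNat (u ^^^ q.1) fun u' =>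
        forceNat ((v ^^^ q.2) ^^^ (u &&& q.1)) fun v' => ih u' v') c

theorem val4_linK (R : List (ℕ × ℕ)) : ∀ (c : List (ℕ × ℤ)) (u v x : ℕ),
    val4 (linK R c u v) x = (val4 (u, v) x + val4 (lin4 R c) x) % 4
  | [], u, v, x => by
    have h4 : val4 (u, v) x < 4 := by unfold val4; split_ifs <;> omega
    simp [linK, lin4, val4_zero, Nat.mod_eq_of_lt h4]
  | it :: c, u, v, x => by
    obtain ⟨i, k⟩ := it
    have e : linK R ((i, k) :: c) u v =
        linK R c (add4 (u, v) (scale4 (k % 4).toNat (nth2 R i))).1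
          (add4 (u, v) (scale4 (k % 4).toNat (nth2 R i))).2 := by
      simp [linK, add4, force2_eq]
    rw [e, val4_linK R c, Prod.mk.eta, val4_add]
    simp only [lin4, force2_eq, forceNat_eq, val4_add]
    omega

/-- Equal packed lists. -/
def same4 (a b : ℕ × ℕ) : Bool := Nat.beq a.1 b.1 && Nat.beq a.2 b.2

variable (D : Pc) (C : Cert) (R : List (ℕ × ℕ)) (S : List (List ℕ × List ℕ))

/-- An indicator modulo four. -/
noncomputable def ind4 (k : ℕ) (q : ℕ) : ℕ × ℕ := scale4 k (unit4 q, 0)

theorem val4_ind4 {k : ℕ} (hk : k < 4) (q x : ℕ) : (val4 (ind4 k q) (x + 64) : ℤ) = k * ind x q := by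
  rw [ind4, val4_scale _ _ hk]
  by_cases h : x = q
  · subst h; simp [val4, ind, testBit_unit4]; omega
  · simp [val4, ind, h, testBit_unit4, Ne.symm h]

/-- The check. -/
noncomputable def fastOk : Bool :=
  decide (C.coords D).Nodup && Nat.beq C.combos.length C.live.length && Nat.blt C.k C.e &&
    (C.live.isEmpty || C.live.contains C.top) &&
    (C.combos.all fun ac => ac.2.all fun it => Nat.blt it.1 S.length) &&
    (C.topCombo.all fun it => Nat.blt it.1 S.length) &&
    force2L (S.map row4) fun R =>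
      ((List.zip C.live C.combos).all fun qa =>
        same4 (linK R qa.2.2 0 0) (add4 (ind4 1 qa.1) (ind4 ((-qa.2.1) % 4).toNat C.top))) &&
      same4 (linK R C.topCombo 0 0) (ind4 (D.p ^ C.k % 4) C.top)

variable {D C R S}

theorem zipWith_getD (f : ℤ → ℤ → ℤ) (hf : f 0 0 = 0) : ∀ (u v : List ℤ) (j : ℕ), u.length = v.length →
    (List.zipWith f u v).getD j 0 = f (u.getD j 0) (v.getD j 0)
  | [], [], j, _ => by simp [hf]
  | a :: u, b :: v, 0, _ => by simp
  | a :: u, b :: v, j + 1, h => by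
    simp only [List.zipWith_cons_cons, List.getD_cons_succ]
    exact zipWith_getD f hf u v j (by simpa using h)
  | [], _ :: _, _, h => by simp at h
  | _ :: _, [], _, h => by simp at h

theorem lincomb_spec (hS : C.rows = S.map (rowOf C.live)) :
    ∀ c : List (ℕ × ℤ), (∀ it ∈ c, it.1 < S.length) → (lincomb C c).length = C.live.length ∧
      ∀ j, (h : j < C.live.length) →
        (lincomb C c).getD j 0 % 4 = (val4 (lin4 (S.map row4) c) (C.live[j] + 64) : ℤ)
  | [], _ => ⟨by simp [lincomb], fun j h => by simp [lincomb, lin4, val4_zero, h]⟩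
  | (i, x) :: t, hc => by
    obtain ⟨h1, h2⟩ := lincomb_spec hS t fun it hit => hc it (List.mem_cons_of_mem _ hit)
    have hi : i < S.length := hc (i, x) List.mem_cons_self
    have hrow : C.rows.getD i [] = rowOf C.live S[i] := by
      rw [hS, List.getD_eq_getElem _ _ (by simpa using hi), List.getElem_map]
    have hlen : (C.rows.getD i []).length = C.live.length := by rw [hrow, rowOf, List.length_map]
    refine ⟨by rw [lincomb, List.length_zipWith, h1, hlen, min_self], fun j hj => ?_⟩
    rw [lincomb, zipWith_getD _ (by simp) _ _ _ (h1.trans hlen.symm), lin4, force2_eq, force2_eq,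
      forceNat_eq, force2_eq, nth2_eq, val4_add, val4_scale _ _ (by omega : (x % 4).toNat < 4),
      List.getD_eq_getElem (S.map row4) _ (by simpa using hi), List.getElem_map]
    have hv := val4_row4 S[i] C.live[j]
    have hx : ((x % 4).toNat : ℤ) = x % 4 := Int.toNat_of_nonneg (Int.emod_nonneg _ (by norm_num))
    have hr : (C.rows.getD i []).getD j 0 =
        (S[i].1.count C.live[j] : ℤ) - (S[i].2.count C.live[j] : ℤ) := by
      rw [hrow, List.getD_eq_getElem _ _ (by simpa [rowOf] using hj)]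
      simp [rowOf]
    push_cast
    rw [hr, ← h2 j hj, hv, hx]
    simp [Int.add_emod, Int.mul_emod]

theorem mem_zipWith_getD {α β γ : Type*} (g : α → β → γ) {u : List α} {v : List β} {d : γ}
    (h : d ∈ List.zipWith g u v) : ∃ j, ∃ h1 : j < u.length, ∃ h2 : j < v.length, d = g u[j] v[j] := by
  obtain ⟨j, hj, rfl⟩ := List.getElem_of_mem h
  rw [List.length_zipWith, lt_min_iff] at hj
  exact ⟨j, hj.1, hj.2, by simp⟩

theorem coord_ok (hS : C.rows = S.map (rowOf C.live)) {c : List (ℕ × ℤ)}
    (hc : ∀ it ∈ c, it.1 < S.length) (f : ℕ → ℤ) (t : ℕ × ℕ)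
    (ht : ∀ x, (val4 t (x + 64) : ℤ) = f x % 4) (h : same4 (linK (S.map row4) c 0 0) t = true) :
    ∀ d ∈ List.zipWith (fun u x => u - f x) (lincomb C c) C.live, d % 4 = 0 := by
  intro d hd
  obtain ⟨j, h1, h2, rfl⟩ := mem_zipWith_getD _ hd
  simp only [same4, Bool.and_eq_true] at h
  have heq : linK (S.map row4) c 0 0 = t :=
    Prod.ext (Nat.eq_of_beq_eq_true h.1) (Nat.eq_of_beq_eq_true h.2)
  have e := (lincomb_spec hS c hc).2 j h2
  have hl : val4 (lin4 (S.map row4) c) (C.live[j] + 64) = val4 t (C.live[j] + 64) := by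
    have h4 : val4 (lin4 (S.map row4) c) (C.live[j] + 64) < 4 := by unfold val4; split_ifs <;> omega
    rw [← heq, val4_linK, val4_zero, zero_add, Nat.mod_eq_of_lt h4]
  rw [hl, ht, List.getD_eq_getElem _ _ h1] at e
  omega

/-- The fast check implies the check of the certificate. -/
theorem combosOk_of_fast (hq : (D.p : ℤ) ^ C.e = 4) (hS : C.rows = S.map (rowOf C.live))
    (h : fastOk D C S = true) : C.combosOk D = true := by
  simp only [fastOk, Bool.and_eq_true, decide_eq_true_eq, force2L_eq] at h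
  obtain ⟨⟨⟨⟨⟨⟨hnd, hl⟩, hk⟩, htop⟩, hci⟩, hti⟩, hall, ht⟩ := h
  have hSl : C.rows.length = S.length := by rw [hS, List.length_map]
  simp only [Cert.combosOk, Bool.and_eq_true, decide_eq_true_eq]
  refine ⟨⟨⟨⟨⟨⟨⟨hnd, hl⟩, hk⟩, htop⟩, by rwa [hSl]⟩, by rwa [hSl]⟩, ?_⟩, ?_⟩
  · rw [List.all_eq_true]
    intro qa hqa
    rw [List.all_eq_true]
    intro d hd
    rw [decide_eq_true_eq, hq]
    refine coord_ok hS (fun it hit => ?_)
      (fun x => ind x qa.1 - qa.2.1 * ind x C.top) _ (fun x => ?_) (List.all_eq_true.1 hall qa hqa) d hd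
    · exact Nat.le_of_ble_eq_true (List.all_eq_true.1 (List.all_eq_true.1 hci qa.2 (List.of_mem_zip hqa).2) it hit)
    · have hk' : ((-qa.2.1) % 4).toNat < 4 := by omega
      have e1 := val4_ind4 (by norm_num : 1 < 4) qa.1 x
      have e2 := val4_ind4 hk' C.top x
      have hx : (((-qa.2.1) % 4).toNat : ℤ) = (-qa.2.1) % 4 :=
        Int.toNat_of_nonneg (Int.emod_nonneg _ (by norm_num))
      rw [val4_add]
      push_cast
      rw [e1, e2, hx, Nat.cast_one, one_mul]
      have : ind x C.top = 0 ∨ ind x C.top = 1 := by unfold ind; split_ifs <;> simp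
      rcases this with e | e <;> rw [e] <;> omega
  · rw [List.all_eq_true]
    intro d hd
    rw [decide_eq_true_eq, hq]
    refine coord_ok hS (fun it hit => Nat.le_of_ble_eq_true (List.all_eq_true.1 hti it hit))
      (fun x => (D.p : ℤ) ^ C.k * ind x C.top) _ (fun x => ?_) ht d hd
    rw [val4_ind4 (Nat.mod_lt _ (by norm_num))]
    have : ind x C.top = 0 ∨ ind x C.top = 1 := by unfold ind; split_ifs <;> simp
    rcases this with e | e <;> rw [e] <;> simp

end Cfsg.Agent.H3.Co1Mult
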