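import Cfsg.Agent.H13.SylMult.Bound
import Cfsg.Agent.H56.Co1Aut.Elements

/-!
The facts about Sylow subgroups of the first Conway group, checked on matrices modulo two.
-/

set_option autoImplicit false
set_option maxRecDepth 100000
set_option maxHeartbeats 400000

namespace Cfsg.Agent.H3.Co1Mult

open Cfsg Cfsg.Agent.H14 Cfsg.Agent.H16 Cfsg.Agent.H13.SylMult Cfsg.Agent.H56

/-- Elements given by integral matrices and their images modulo two, and the letters. -/
structure MatData where
  /-- the elements given by matrices -/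
  mats : List (H15.Mat × List ℕ)
  /-- the further elements: two factors and the image -/
  prods : List (ℕ × ℕ × List ℕ)
  /-- the letters -/
  letters : List ℕ
  /-- the conjugating elements -/
  conjs : List ℕ
  /-- for each letter a point and a set of points invariant under the later letters -/
  orbits : List (ℕ × List ℕ)

variable (R : MatData)

/-- The number of elements. -/
def MatData.len : ℕ := R.mats.length + R.prods.length

/-- The matrix of an element. -/
def MatData.mat (i : ℕ) : List ℕ :=
  if i < R.mats.length then (R.mats.getD i (⟨[], []⟩, [])).2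
  else (R.prods.getD (i - R.mats.length) (0, 0, [])).2.2

/-- The image under a word of elements. -/
noncomputable def MatData.apW : List ℕ → ℕ → ℕ
  | [], x => x
  | i :: w, x => forceNat (MatData.apW w x) fun y => Co1Aut.ap (R.mat i) y

/-- The elements of a word of letters. -/
def MatData.word (w : List ℕ) : List ℕ := w.map fun a => R.letters.getD a 0

/-- Two words agree on the basis. -/
noncomputable def MatData.sameW (u v : List ℕ) : Bool :=
  H15.allBelow (fun j => Nat.beq (R.apW u (2 ^ j)) (R.apW v (2 ^ j))) 24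

/-- The elements are correct. -/
noncomputable def MatData.matsOk : Bool :=
  R.mats.all fun m => m.1.ok && Co1Aut.colCheck m.1 m.2

/-- The products are correct. -/
noncomputable def MatData.prodsOk : Bool :=
  H15.allBelow (fun i =>
    let ab := R.prods.getD i (0, 0, [])
    Nat.blt ab.1 (R.mats.length + i) && Nat.blt ab.2.1 (R.mats.length + i) && ab.2.2.length == 24 &&
      H15.allBelow (fun j => Nat.beq (R.apW [ab.1, ab.2.1] (2 ^ j)) (ab.2.2.getD j 0)) 24) R.prods.length

variable (D : Pc) (C : Cert)

/-- The relations hold. -/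
noncomputable def MatData.relsOk : Bool :=
  (List.range D.n).all fun a =>
    ((List.range a).all fun b => R.sameW (R.word [a, b]) (R.word (b :: a :: D.tail a b))) &&
      R.sameW (R.word (List.replicate D.p a)) (R.word (D.tail a a))

/-- Membership test. -/
noncomputable def memN (x : ℕ) (l : List ℕ) : Bool :=
  List.rec (motive := fun _ => Bool) false (fun a _ ih => Nat.beq x a || ih) l

/-- The letters are independent. -/
noncomputable def MatData.sepOk : Bool :=
  (List.range D.n).all fun i =>
    let xO := R.orbits.getD i (0, [])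
    memN xO.1 xO.2 && xO.2.all (fun k => Nat.blt k (2 ^ 24)) &&
      (List.range (D.n - (i + 1))).all (fun j =>
        xO.2.all fun k => memN (R.apW (R.word [i + 1 + j]) k) xO.2) &&
      forceNat (R.apW (R.word [i]) xO.1) fun y => Nat.blt y (2 ^ 24) && !memN y xO.2

/-- One conjugation fact. -/
noncomputable def MatData.conjOk : Eqn → Bool
  | .assoc _ _ => true
  | .fus g l l' _ => Nat.blt g R.conjs.length && (List.range l.length).all fun i =>
      R.sameW (R.conjs.getD g 0 :: R.word (l.getD i [])) (R.word (l'.getD i []) ++ [R.conjs.getD g 0])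

/-- All the facts. -/
noncomputable def MatData.ok : Bool :=
  R.matsOk && R.prodsOk && R.relsOk D && R.sepOk D && C.eqns.all R.conjOk && Nat.beq R.letters.length D.n &&
    R.letters.all (fun k => Nat.blt k R.len) && R.conjs.all (fun k => Nat.blt k R.len)

variable {R D C}

theorem memN_iff {x : ℕ} : ∀ {l : List ℕ}, memN x l = true ↔ x ∈ l
  | [] => by simp [memN]
  | a :: l => by
    have ih := memN_iff (x := x) (l := l)
    simp only [memN] at ih ⊢
    rw [Bool.or_eq_true, ih, List.mem_cons, Nat.beq_eq]

theorem exists_rep (h : R.matsOk = true) (h' : R.prodsOk = true) :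
    ∀ k < R.len, ∃ q : Spor.Co1, Co1Aut.Rep q (Co1Aut.ap (R.mat k)) := by
  simp only [MatData.matsOk, List.all_eq_true, Bool.and_eq_true] at h
  intro k
  induction k using Nat.strong_induction_on with
  | _ k ih =>
    intro hk
    by_cases hb : k < R.mats.length
    · obtain ⟨h1, h2⟩ := h _ (List.getElem_mem hb)
      refine ⟨Co1Aut.mk (H15.matAut (R.mats[k]).1 h1), ?_⟩
      rw [MatData.mat, if_pos hb, List.getD_eq_getElem _ _ hb]
      exact (Co1Aut.repL_matAut h1 h2).rep
    · have hi := H15.allBelow_eq_true h' (k - R.mats.length) (by unfold MatData.len at hk; omega)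
      simp only [Bool.and_eq_true, beq_iff_eq] at hi
      obtain ⟨⟨⟨ha, hb'⟩, hlen⟩, hcheck⟩ := hi
      rw [Nat.blt_eq] at ha hb'
      obtain ⟨qa, hqa⟩ := ih _ (show (R.prods.getD (k - R.mats.length) (0, 0, [])).1 < k by omega) (by omega)
      obtain ⟨qb, hqb⟩ := ih _ (show (R.prods.getD (k - R.mats.length) (0, 0, [])).2.1 < k by omega) (by omega)
      have hab := hqa.mul hqb
      refine ⟨qa * qb, ?_⟩
      obtain ⟨g, hg⟩ := Co1Aut.mk_surjective (qa * qb)
      rw [MatData.mat, if_neg hb, ← hg]
      refine (Co1Aut.repL_of_basis hlen fun j => ?_).rep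
      have := Nat.eq_of_beq_eq_true (H15.allBelow_eq_true hcheck _ j.2)
      simp only [MatData.apW, forceNat_eq] at this
      rw [hab g hg _ (2 ^ j.val) (Co1Aut.isLeech_bV j) (by rw [Co1Aut.red_bV, Co1Aut.vecB_pow]), ← this]
      rfl

/-- In a finite group a submonoid containing the generators contains the subgroup they generate. -/
theorem closure_le_submonoid {X : Type*} [Group X] [Finite X] {S : Set X} (M : Submonoid X)
    (h : S ⊆ M) {q : X} (hq : q ∈ Subgroup.closure S) : q ∈ M := by
  rw [← Subgroup.mem_toSubmonoid, Subgroup.closure_toSubmonoid_of_finite] at hq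
  exact (Submonoid.closure_le.2 h) hq

/-- The group facts from the matrix checks. -/
theorem groupFacts (h : R.ok D C = true) (hp : D.p.Prime) (hok : D.ok C = true)
    (hrows : C.rowsOk D = true) : ∃ E F : ℕ → Spor.Co1, GroupFacts D C E F := by
  classical
  simp only [MatData.ok, Bool.and_eq_true] at h
  obtain ⟨⟨⟨⟨⟨⟨⟨hpr, hpr2⟩, hrel⟩, hsep⟩, hconj⟩, hlen⟩, hlet⟩, hcj⟩ := h
  replace hlen := Nat.eq_of_beq_eq_true hlen
  obtain ⟨hrn, -, -, hswap, hpow⟩ := ok_spec hok
  have hex : ∀ k, ∃ q : Spor.Co1, k < R.len → Co1Aut.Rep q (Co1Aut.ap (R.mat k)) := fun k => by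
    by_cases hk : k < R.len
    · obtain ⟨q, hq⟩ := exists_rep hpr hpr2 k hk
      exact ⟨q, fun _ => hq⟩
    · exact ⟨1, fun h => absurd h hk⟩
  choose el hel using hex
  let E : ℕ → Spor.Co1 := fun a => el (R.letters.getD a 0)
  let F : ℕ → Spor.Co1 := fun g => el (R.conjs.getD g 0)
  have hW : ∀ w : List ℕ, (∀ i ∈ w, i < R.len) → Co1Aut.Rep (w.map el).prod (R.apW w) := by
    intro w hw
    induction w with
    | nil => exact Co1Aut.rep_one
    | cons i w ih =>
      have e : R.apW (i :: w) = Co1Aut.ap (R.mat i) ∘ R.apW w := by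
        funext x; rw [Function.comp_apply, MatData.apW, forceNat_eq]
      rw [List.map_cons, List.prod_cons, e]
      exact (hel i (hw i List.mem_cons_self)).mul (ih fun j hj => hw j (List.mem_cons_of_mem _ hj))
  have hword : ∀ w : List ℕ, (∀ a ∈ w, a < D.n) → ∀ i ∈ R.word w, i < R.len := by
    intro w hw i hi
    obtain ⟨a, ha, rfl⟩ := List.mem_map.1 hi
    rw [List.getD_eq_getElem _ _ (hlen ▸ hw a ha)]
    exact Nat.le_of_ble_eq_true (List.all_eq_true.1 hlet _ (List.getElem_mem _))
  have hval : ∀ w, wval E w = ((R.word w).map el).prod := fun w => by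
    rw [wval, MatData.word, List.map_map]; rfl
  have hsame : ∀ u v : List ℕ, (∀ i ∈ u, i < R.len) → (∀ i ∈ v, i < R.len) → R.sameW u v = true →
      (u.map el).prod = (v.map el).prod := fun u v hu hv he =>
    Co1Aut.Rep.eq (hW u hu) (hW v hv) fun j =>
      Nat.eq_of_beq_eq_true (H15.allBelow_eq_true he _ j.2)
  simp only [MatData.relsOk, List.all_eq_true, List.mem_range, Bool.and_eq_true] at hrel
  refine ⟨E, F, ?_, ?_, ?_, ?_⟩
  · intro a b ha hb
    have h2 := hsame _ _ (hword [a, b] (by simp; omega)) (hword _ ?_) ((hrel a ha).1 b hb)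
    · rw [← hval, ← hval] at h2
      simpa [wval_cons, wval_nil] using h2
    · intro x hx
      rcases List.mem_cons.1 hx with rfl | hx
      · omega
      rcases List.mem_cons.1 hx with rfl | hx
      · exact ha
      · exact ((hswap a b ha hb).1 x hx).2.1
  · intro a ha
    have h2 := hsame _ _ (hword _ fun x hx => by rw [List.eq_of_mem_replicate hx]; exact ha)
      (hword _ fun x hx => ((hpow a ha).1 x hx).2) (hrel a ha).2
    rwa [← hval, ← hval, wval_replicate] at h2
  · intro i hi hmem
    simp only [MatData.sepOk, List.all_eq_true, List.mem_range, Bool.and_eq_true] at hsep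
    obtain ⟨⟨⟨hx, hlt⟩, hinv⟩, hout⟩ := hsep i hi
    set x := (R.orbits.getD i (0, [])).1
    set O := (R.orbits.getD i (0, [])).2
    let P : Spor.Co1 → Prop := fun q => ∃ f, Co1Aut.Rep q f ∧ ∀ k ∈ O, f k ∈ O
    have hP : P (E i) → False := by
      rintro ⟨f, hf, hfO⟩
      rw [forceNat_eq, Bool.and_eq_true, Nat.blt_eq, Bool.not_eq_true'] at hout
      have hi' := hword [i] (by simpa using hi)
      have hr := hW _ hi'
      rw [← hval, wval_cons, wval_nil, mul_one] at hr
      have e := hr.agree hf x
      have h1 := hfO x (memN_iff.1 hx)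
      have h2 := hlt _ h1
      rw [Nat.blt_eq] at h2
      rw [Nat.mod_eq_of_lt hout.1, Nat.mod_eq_of_lt h2] at e
      rw [← e] at h1
      rw [memN_iff.2 h1] at hout
      exact Bool.noConfusion hout.2
    refine hP ?_
    let M : Submonoid Spor.Co1 :=
      { carrier := {q | P q}
        one_mem' := ⟨id, Co1Aut.rep_one, fun k hk => hk⟩
        mul_mem' := fun {a b} ⟨f, hf, hfO⟩ ⟨f', hf', hfO'⟩ =>
          ⟨f ∘ f', hf.mul hf', fun k hk => hfO _ (hfO' k hk)⟩ }
    have hgen : ∀ j, i + 1 ≤ j → j < D.n → E j ∈ M := by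
      intro j h1 h2
      refine ⟨R.apW (R.word [j]), ?_, fun k hk => ?_⟩
      · have hr := hW _ (hword [j] (by simpa using h2))
        rwa [← hval, wval_cons, wval_nil, mul_one] at hr
      · have := hinv (j - (i + 1)) (by omega) k hk
        rw [show i + 1 + (j - (i + 1)) = j by omega] at this
        exact memN_iff.1 this
    refine closure_le_submonoid M ?_ hmem
    rintro x (⟨j, h1, h2, rfl⟩ | hx1)
    · exact hgen j h1 h2
    · rw [SetLike.mem_coe, Subgroup.mem_bot] at hx1
      rw [SetLike.mem_coe, hx1]
      exact M.one_mem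
  · intro g l l' π hq i hi
    have hlen' : l.length = l'.length ∧ (∀ w ∈ l ++ l', ∀ x ∈ w, x < D.n) := by
      simp only [Cert.rowsOk, Bool.and_eq_true, List.all_eq_true] at hrows
      obtain ⟨k, hk, hkq⟩ := List.getElem_of_mem hq
      have hl := Nat.eq_of_beq_eq_true hrows.1
      have := hrows.2 (C.eqns[k], C.rows[k]'(hl ▸ hk)) (by
        rw [List.mem_iff_getElem]
        exact ⟨k, by simp [List.length_zip, ← hl, hk], by simp⟩)
      rw [hkq] at this
      simp only [eqnOk, Eqn.lettersOk, Eqn.shapeOk, Bool.and_eq_true, List.all_eq_true, Nat.blt_eq] at this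
      exact ⟨Nat.eq_of_beq_eq_true this.1.1.1.2.1.2, this.1.1.1.1⟩
    have h2 := List.all_eq_true.1 hconj _ hq
    simp only [MatData.conjOk, List.all_eq_true, List.mem_range, Bool.and_eq_true, Nat.blt_eq] at h2
    have hg : R.conjs.getD g 0 < R.len := by
      rw [List.getD_eq_getElem _ _ h2.1]
      exact Nat.le_of_ble_eq_true (List.all_eq_true.1 hcj _ (List.getElem_mem _))
    have hm : ∀ L : List (List ℕ), (∀ w ∈ L, w ∈ l ++ l') → i < L.length →
        ∀ x ∈ R.word (L.getD i []), x < R.len := fun L hL hiL => hword _ fun x hx => by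
      rw [List.getD_eq_getElem _ _ hiL] at hx
      exact hlen'.2 _ (hL _ (List.getElem_mem _)) x hx
    have ml := hm l (fun w hw => List.mem_append_left _ hw) hi
    have ml' := hm l' (fun w hw => List.mem_append_right _ hw) (hlen'.1 ▸ hi)
    have h3 := hsame _ _ (List.forall_mem_cons.2 ⟨hg, ml⟩)
      (fun x hx => (List.mem_append.1 hx).elim (ml' x) fun h => by
        rw [List.mem_singleton] at h; exact h ▸ hg) (h2.2 i hi)
    simpa [F, ← hval, List.map_append] using h3

end Cfsg.Agent.H3.Co1Mult
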