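import Cfsg.Agent.H13.SylMult.Cert
import Cfsg.Agent.H16.CertArr

/-!
Fast forms of the checks of a certificate: every collection is done once on evaluated words, the
counts of constants are packed in one number, and the rows are given by their positive and negative
parts.
-/

set_option autoImplicit false

namespace Cfsg.Agent.H3.Co1Mult

open Cfsg.Agent.H13.SylMult Cfsg.Agent.H16

/-- Evaluate a list of numbers before use. -/
noncomputable def forceList {α : Type} (l : List ℕ) (f : List ℕ → α) : α :=
  List.rec (motive := fun _ => (List ℕ → α) → α) (fun f => f [])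
    (fun a _ ih f => forceNat a fun a => ih fun t => f (a :: t)) l f

@[simp] theorem forceList_eq {α : Type} : ∀ (l : List ℕ) (f : List ℕ → α), forceList l f = f l
  | [], _ => rfl
  | a :: l, f => by
    show forceNat a (fun a => forceList l fun t => f (a :: t)) = f (a :: l)
    rw [forceNat_eq, forceList_eq l]

variable (D : Pc)

/-- Collection passing the results on. -/
noncomputable def collK (fuel : ℕ) : List ℕ → (List ℕ → List ℕ → Bool) → Bool :=
  Nat.rec (motive := fun _ => List ℕ → (List ℕ → List ℕ → Bool) → Bool) (fun w k => k w [])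
    (fun _ ih w k => match cStep D w with
      | none => k w []
      | some r => forceList r.1 fun w' => forceNat r.2 fun q => ih w' fun u cs => k u (q :: cs)) fuel

theorem collK_eq : ∀ (fuel : ℕ) (w : List ℕ) (k : List ℕ → List ℕ → Bool),
    collK D fuel w k = k (coll D fuel w).1 (coll D fuel w).2
  | 0, _, _ => rfl
  | f + 1, w, k => by
    show (match cStep D w with
      | none => k w []
      | some r => forceList r.1 fun w' => forceNat r.2 fun q =>
          collK D f w' fun u cs => k u (q :: cs)) = _
    rw [coll]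
    cases cStep D w with
    | none => rfl
    | some r => simp [collK_eq f]

/-- The packed counts. -/
noncomputable def pack (l : List ℕ) : ℕ :=
  List.rec (motive := fun _ => ℕ) 0
    (fun a _ ih => forceNat ih fun s => 4096 ^ a * 4096 ^ 6 + a * 2654435761 % 1099511627776 + s) l

/-- The counts alone. -/
def packS (l : List ℕ) : ℕ := (l.map fun a => (4096 : ℕ) ^ a).sum

/-- The packed counts are the counts shifted and a short tag, which spreads the low digits. -/
theorem pack_eq : ∀ l : List ℕ, ∃ t, pack l = packS l * 4096 ^ 6 + t ∧ t ≤ l.length * 1099511627776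
  | [] => ⟨0, by simp [pack, packS], le_rfl.trans (Nat.zero_le _)⟩
  | a :: l => by
    obtain ⟨t, ht, hle⟩ := pack_eq l
    have e : pack (a :: l) = 4096 ^ a * 4096 ^ 6 + a * 2654435761 % 1099511627776 + pack l := by
      simp [pack]
    refine ⟨a * 2654435761 % 1099511627776 + t, ?_, ?_⟩
    · rw [e, ht]
      simp only [packS, List.map_cons, List.sum_cons]
      ring
    · rw [List.length_cons, Nat.succ_mul]
      have := Nat.mod_lt (a * 2654435761) (show 0 < 1099511627776 by norm_num)
      omega

/-- The set of the elements of a list, as a number. -/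
noncomputable def mask (l : List ℕ) : ℕ :=
  List.rec (motive := fun _ => ℕ) 0 (fun a _ ih => forceNat ih fun s => 2 ^ a ||| s) l

theorem mask_spec : ∀ (l : List ℕ) (x : ℕ), (mask l).testBit x = true ↔ x ∈ l
  | [], x => by simp [mask]
  | a :: l, x => by
    have e : mask (a :: l) = 2 ^ a ||| mask l := by simp [mask]
    rw [e, Nat.testBit_or, Bool.or_eq_true, mask_spec l x, Nat.testBit_two_pow, decide_eq_true_eq,
      List.mem_cons, eq_comm]

theorem digits_eq {B : ℕ} : ∀ (M : ℕ) (u v : ℕ → ℕ), (∀ i, u i < B) → (∀ i, v i < B) →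
    ∑ i ∈ Finset.range M, u i * B ^ i = ∑ i ∈ Finset.range M, v i * B ^ i → ∀ i < M, u i = v i
  | 0, _, _, _, _, _, i, hi => absurd hi (Nat.not_lt_zero i)
  | M + 1, u, v, hu, hv, h, i, hi => by
    rw [Finset.sum_range_succ', Finset.sum_range_succ'] at h
    simp only [pow_succ, ← mul_assoc, ← Finset.sum_mul, pow_zero, mul_one] at h
    have h0 := congrArg (· % B) h
    simp only [Nat.add_mod, Nat.mul_mod_left, zero_add, Nat.mod_eq_of_lt (hu 0),
      Nat.mod_eq_of_lt (hv 0)] at h0
    rw [h0] at h
    have h1 := Nat.eq_of_mul_eq_mul_right (lt_of_le_of_lt (Nat.zero_le _) (hu 0)) (Nat.add_right_cancel h)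
    cases i with
    | zero => exact h0
    | succ j =>
      exact digits_eq M (fun i => u (i + 1)) (fun i => v (i + 1)) (fun i => hu _) (fun i => hv _) h1
        j (by omega)

theorem pack_sum : ∀ (l : List ℕ) (M : ℕ), (∀ x ∈ l, x < M) →
    packS l = ∑ i ∈ Finset.range M, l.count i * 4096 ^ i
  | [], M, _ => by simp [packS]
  | a :: l, M, h => by
    have e : packS (a :: l) = 4096 ^ a + packS l := by simp [packS]
    have hs : ∑ i ∈ Finset.range M, (if a = i then (4096 : ℕ) ^ i else 0) = 4096 ^ a := by
      rw [Finset.sum_ite_eq, if_pos (Finset.mem_range.2 (h a List.mem_cons_self))]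
    rw [e, pack_sum l M fun x hx => h x (List.mem_cons_of_mem _ hx), ← hs, ← Finset.sum_add_distrib]
    refine Finset.sum_congr rfl fun i _ => ?_
    by_cases hi : a = i
    · subst hi; rw [if_pos rfl, List.count_cons_self]; ring
    · rw [if_neg hi, List.count_cons_of_ne hi, zero_add]

theorem count_eq_of_pack {u v : List ℕ} (hu : u.length < 4096) (hv : v.length < 4096)
    (h : pack u = pack v) (x : ℕ) : u.count x = v.count x := by
  have hM : ∀ y ∈ u ++ v ++ [x], y < (u ++ v ++ [x]).sum + 1 := fun y hy =>
    Nat.lt_succ_of_le (List.single_le_sum (fun _ _ => Nat.zero_le _) y hy)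
  have h : packS u = packS v := by
    obtain ⟨t, ht, htl⟩ := pack_eq u
    obtain ⟨t', ht', htl'⟩ := pack_eq v
    have hd : ∀ S r : ℕ, r < 4096 ^ 6 → (S * 4096 ^ 6 + r) / 4096 ^ 6 = S := fun S r hr => by
      rw [Nat.add_comm, Nat.add_mul_div_right _ _ (by positivity), Nat.div_eq_of_lt hr, Nat.zero_add]
    have hb : ∀ n r : ℕ, n < 4096 → r ≤ n * 1099511627776 → r < 4096 ^ 6 := fun n r hn hr => by
      norm_num; omega
    rw [ht, ht'] at h
    have := congrArg (· / 4096 ^ 6) h
    simp only [hd _ _ (hb _ _ hu htl), hd _ _ (hb _ _ hv htl')] at this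
    exact this
  rw [pack_sum u _ fun y hy => hM y (by simp [hy]), pack_sum v _ fun y hy => hM y (by simp [hy])] at h
  exact digits_eq _ _ _ (fun i => lt_of_le_of_lt List.count_le_length hu)
    (fun i => lt_of_le_of_lt List.count_le_length hv) h x (hM x (by simp))

/-- A row from its positive and negative parts. -/
def rowOf (live : List ℕ) (pn : List ℕ × List ℕ) : List ℤ :=
  live.map fun x => (pn.1.count x : ℤ) - (pn.2.count x : ℤ)

/-- The test of two sides against a row. -/
noncomputable def sideOk (LM KM CM : ℕ) (pn : List ℕ × List ℕ) (a b : List ℕ) : Bool :=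
  Nat.blt (a ++ pn.2).length 4096 && Nat.blt (b ++ pn.1).length 4096 &&
    Nat.beq (pack (a.filter (fun x => KM.testBit x) ++ pn.2))
      (pack (b.filter (fun x => KM.testBit x) ++ pn.1)) && (pn.1 ++ pn.2).all (fun x => LM.testBit x) &&
    (a ++ b).all fun x => CM.testBit x

variable (C : Cert)

/-- The check of one equation. -/
noncomputable def eqnFast (LM KM CM : ℕ) : Eqn → List ℕ × List ℕ → Bool
  | .assoc u v, pn => Eqn.lettersOk D (.assoc u v) &&
      collK D C.fuel (u ++ v) fun a c1 => collK D C.fuel v fun b c2 =>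
        collK D C.fuel (u ++ b) fun a' c3 => (a == a') && sideOk LM KM CM pn c1 (c2 ++ c3)
  | .fus g l l' π, pn => Eqn.lettersOk D (.fus g l l' π) && Nat.beq l.length l'.length &&
      decide (π.Perm (List.range l.length)) &&
      collK D C.fuel l.flatten fun a c1 => collK D C.fuel (pick π l).flatten fun a' d1 =>
        collK D C.fuel (pick π l').flatten fun b c2 => collK D C.fuel l'.flatten fun b' d2 =>
          (a == a') && (b' == b) && sideOk LM KM CM pn (c1 ++ c2) (d1 ++ d2)

/-- The fast check of the rows. -/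
noncomputable def rowsFast (S : List (List ℕ × List ℕ)) : Bool :=
  forceNat (mask C.live) fun LM => forceNat (mask C.live ||| mask C.free) fun KM => forceNat (mask (C.coords D)) fun CM =>
    Nat.beq C.eqns.length S.length && Nat.beq (LM &&& mask C.free) 0 &&
      (List.zip C.eqns S).all fun qs => eqnFast D C LM KM CM qs.1 qs.2

variable {D C}

theorem eqnOk_of_fast (hd : mask C.live &&& mask C.free = 0) (q : Eqn) (pn : List ℕ × List ℕ)
    (h : eqnFast D C (mask C.live) (mask C.live ||| mask C.free) (mask (C.coords D)) q pn = true) :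
    eqnOk D C q (rowOf C.live pn) = true := by
  have key : ∀ a b : List ℕ, sideOk (mask C.live) (mask C.live ||| mask C.free) (mask (C.coords D)) pn a b = true →
      (∀ x ∈ C.live, netCount (a, b) x = (pn.1.count x : ℤ) - (pn.2.count x : ℤ)) ∧
      (∀ x ∈ C.free, netCount (a, b) x = 0) ∧ ∀ x ∈ a ++ b, (C.coords D).contains x = true := by
    intro a b hs
    simp only [sideOk, Bool.and_eq_true, Nat.blt_eq, List.all_eq_true] at hs
    obtain ⟨⟨⟨⟨h1, h2⟩, h3⟩, h4⟩, h5⟩ := hs
    have e : ∀ x, (x ∈ C.live ∨ x ∈ C.free) →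
        netCount (a, b) x = (pn.1.count x : ℤ) - (pn.2.count x : ℤ) := fun x hx => by
      have hk : (mask C.live ||| mask C.free).testBit x = true := by
        rw [Nat.testBit_or, Bool.or_eq_true, mask_spec, mask_spec]; exact hx
      have hl : ∀ l : List ℕ, ∀ m : List ℕ,
          (l.filter (fun y => (mask C.live ||| mask C.free).testBit y) ++ m).length ≤ (l ++ m).length :=
        fun l m => by simp [List.length_filter_le]
      have := count_eq_of_pack (lt_of_le_of_lt (hl a pn.2) h1) (lt_of_le_of_lt (hl b pn.1) h2)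
        (Nat.eq_of_beq_eq_true h3) x
      simp only [List.count_append] at this
      rw [List.count_filter hk, List.count_filter hk] at this
      simp only [netCount]
      omega
    refine ⟨fun x hx => e x (Or.inl hx), fun x hx => ?_, fun x hx => List.contains_iff_mem.2 ((mask_spec _ _).1 (h5 x hx))⟩
    have h0 : ∀ l : List ℕ, (∀ y ∈ l, (mask C.live).testBit y = true) → l.count x = 0 := fun l hl =>
      List.count_eq_zero.2 fun hm => by
        have := congrArg (Nat.testBit · x) hd
        simp [hl x hm, (mask_spec _ _).2 hx] at this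
    rw [e x (Or.inr hx), h0 pn.1 fun y hy => h4 y (List.mem_append_left _ hy),
      h0 pn.2 fun y hy => h4 y (List.mem_append_right _ hy)]
    simp
  suffices H : q.lettersOk D = true ∧ q.shapeOk D C.fuel = true ∧
      sideOk (mask C.live) (mask C.live ||| mask C.free) (mask (C.coords D)) pn (q.sides D C.fuel).1 (q.sides D C.fuel).2 = true by
    obtain ⟨h1, h2, h3⟩ := H
    obtain ⟨e1, e2, e3⟩ := key _ _ h3
    simp only [eqnOk, Bool.and_eq_true, decide_eq_true_eq, List.all_eq_true]
    exact ⟨⟨⟨⟨h1, h2⟩, List.map_congr_left fun x hx => e1 x hx⟩, e2⟩, e3⟩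
  cases q with
  | assoc u v =>
    simp only [eqnFast, collK_eq, Bool.and_eq_true] at h
    exact ⟨h.1, by simpa [Eqn.shapeOk] using h.2.1, by simpa [Eqn.sides] using h.2.2⟩
  | fus g l l' π =>
    simp only [eqnFast, collK_eq, Bool.and_eq_true] at h
    obtain ⟨⟨⟨h1, h2⟩, h3⟩, ⟨⟨h4, h5⟩, h6⟩⟩ := h
    refine ⟨h1, ?_, by simpa [Eqn.sides] using h6⟩
    simp only [Eqn.shapeOk, Bool.and_eq_true]
    exact ⟨⟨⟨h4, h5⟩, h2⟩, h3⟩

theorem rowsOk_of_fast {S : List (List ℕ × List ℕ)} (hS : C.rows = S.map (rowOf C.live))
    (h : rowsFast D C S = true) : C.rowsOk D = true := by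
  simp only [rowsFast, forceNat_eq, Bool.and_eq_true, List.all_eq_true] at h
  obtain ⟨⟨h1, h2⟩, h3⟩ := h
  simp only [Cert.rowsOk, hS, List.length_map, Bool.and_eq_true, List.all_eq_true]
  refine ⟨by simp [h1], fun qr hqr => ?_⟩
  rw [List.zip_map_right, List.mem_map] at hqr
  obtain ⟨qs, hqs, rfl⟩ := hqr
  exact eqnOk_of_fast (Nat.eq_of_beq_eq_true h2) _ _ (h3 qs hqs)

end Cfsg.Agent.H3.Co1Mult
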