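import Cfsg.Agent.H3.Co1Mult.Checks2
import Cfsg.Agent.H3.Co1Mult.Checks2Dat
import Cfsg.Agent.H3.Co1Mult.Checks3
import Cfsg.Agent.H3.Co1Mult.Checks5
import Cfsg.Agent.H3.Co1Mult.Checks7
import Cfsg.Agent.H13.SylMult.Mult
import Cfsg.Agent.H14.Co1Simple

/-!
The Schur multiplier of the first Conway group has order two.
-/

set_option autoImplicit false
set_option maxRecDepth 100000

namespace Cfsg.Agent.H3.Co1Mult

open Cfsg Cfsg.Agent.H14 Cfsg.Agent.H13.SylMult Cfsg.Agent.H56

/-- The group of the lattice is perfect. -/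
theorem commutator_Co0 : commutator Co0 = ⊤ := by
  have h := commutator_sup_center
  have hz : ∀ z ∈ Subgroup.center Co0, z * z = 1 := fun z hz => by
    rcases mem_center_iff.1 hz with rfl | rfl
    · exact one_mul _
    · refine act_eq_of_forall fun x hx => ?_
      rw [mul_act, act_negOne hx, act_negOne hx.neg, neg_neg, one_act]
  have hmem : negOne ∈ commutator Co0 := by
    obtain ⟨g, hg⟩ := exists_sq_negOne
    have hg' : g ∈ commutator Co0 ⊔ Subgroup.center Co0 := by rw [h]; exact Subgroup.mem_top g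
    obtain ⟨d, hd, z, hzz, rfl⟩ := Subgroup.mem_sup_of_normal_left.1 hg'
    have e : d * z * (d * z) = d * d := by
      rw [mul_assoc, ← mul_assoc z, ← (Subgroup.mem_center_iff.1 hzz d), mul_assoc d z, hz z hzz, mul_one]
    rw [e] at hg
    exact hg ▸ mul_mem hd hd
  have hle : Subgroup.center Co0 ≤ commutator Co0 := fun z hz' => by
    rcases mem_center_iff.1 hz' with rfl | rfl
    · exact one_mem _
    · exact hmem
  rwa [sup_eq_left.2 hle] at h

theorem bound (Δ : Type) [Group Δ] [Finite Δ] (τ : Δ →* Spor.Co1)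
    (hτ : Cfsg.IsStemExtension τ) : Nat.card τ.ker ∣ 2 := by
  haveI : Finite Spor.Co1 := Nat.finite_of_card_ne_zero (by
    rw [show Nat.card Spor.Co1 = 4157776806543360000 from card_Co1]; norm_num)
  have hc : Nat.card Spor.Co1 = 4157776806543360000 := card_Co1
  obtain ⟨E2, F2, h2⟩ := groupFacts P2.dat_ok (show Nat.Prime 2 by norm_num) P2.pc_ok P2.rows_ok
  obtain ⟨E3, F3, h3⟩ := groupFacts P3.dat_ok (show Nat.Prime 3 by norm_num) P3.pc_ok P3.rows_ok
  obtain ⟨E5, F5, h5⟩ := groupFacts P5.dat_ok (show Nat.Prime 5 by norm_num) P5.pc_ok P5.rows_ok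
  obtain ⟨E7, F7, h7⟩ := groupFacts P7.dat_ok (show Nat.Prime 7 by norm_num) P7.pc_ok P7.rows_ok
  have b2 := factorization_ker_le hτ (show Nat.Prime 2 by norm_num) P2.pc_ok P2.rows_ok P2.combos_ok h2
    (factorization_eq (a := 21) (b := 1982582476875) (by norm_num : Nat.Prime 2) (by rw [hc]; rfl)
      (show ¬ (2 : ℕ) ∣ 1982582476875 by norm_num))
  have b3 := factorization_ker_le hτ (show Nat.Prime 3 by norm_num) P3.pc_ok P3.rows_ok P3.combos_ok h3
    (factorization_eq (a := 9) (b := 211236945920000) (by norm_num : Nat.Prime 3) (by rw [hc]; rfl)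
      (show ¬ (3 : ℕ) ∣ 211236945920000 by norm_num))
  have b5 := factorization_ker_le hτ (show Nat.Prime 5 by norm_num) P5.pc_ok P5.rows_ok P5.combos_ok h5
    (factorization_eq (a := 4) (b := 6652442890469376) (by norm_num : Nat.Prime 5) (by rw [hc]; rfl)
      (show ¬ (5 : ℕ) ∣ 6652442890469376 by norm_num))
  have b7 := factorization_ker_le hτ (show Nat.Prime 7 by norm_num) P7.pc_ok P7.rows_ok P7.combos_ok h7
    (factorization_eq (a := 2) (b := 84852587888640000) (by norm_num : Nat.Prime 7) (by rw [hc]; rfl)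
      (show ¬ (7 : ℕ) ∣ 84852587888640000 by norm_num))
  refine card_ker_dvd hτ two_ne_zero [2, 3, 5, 7] (fun p hp => ?_) (fun p hp hn => ?_)
  · simp only [List.mem_cons, List.not_mem_nil, or_false] at hp
    rcases hp with rfl | rfl | rfl | rfl
    · exact b2.trans (by rw [Nat.Prime.factorization_self Nat.prime_two]; exact le_rfl)
    · exact b3.trans (Nat.zero_le _)
    · exact b5.trans (Nat.zero_le _)
    · exact b7.trans (Nat.zero_le _)
  · rw [hc]
    simp only [List.mem_cons, List.not_mem_nil, or_false, not_or] at hn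
    by_contra hlt
    have hd : p ^ 2 ∣ 2 ^ 21 * (3 ^ 9 * (5 ^ 4 * (7 ^ 2 * (11 * 13 * 23)))) := by
      refine (pow_dvd_pow p (by omega : 2 ≤ (4157776806543360000 : ℕ).factorization p)).trans ?_
      norm_num
      exact Nat.ordProj_dvd 4157776806543360000 p
    have cop : ∀ q k, q.Prime → p ≠ q → Nat.Coprime (p ^ 2) (q ^ k) := fun q k hq hne =>
      Nat.Coprime.pow 2 k ((Nat.coprime_primes hp hq).2 hne)
    have h4 := (cop 7 2 (by norm_num) hn.2.2.2).dvd_of_dvd_mul_left
      ((cop 5 4 (by norm_num) hn.2.2.1).dvd_of_dvd_mul_left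
        ((cop 3 9 Nat.prime_three hn.2.1).dvd_of_dvd_mul_left
          ((cop 2 21 Nat.prime_two hn.1).dvd_of_dvd_mul_left hd)))
    have h' := (dvd_pow_self p two_ne_zero).trans h4
    rcases (Nat.Prime.dvd_mul hp).1 h' with h | h
    · rcases (Nat.Prime.dvd_mul hp).1 h with h | h
      · rw [(Nat.prime_dvd_prime_iff_eq hp (by norm_num)).1 h] at h4; norm_num at h4
      · rw [(Nat.prime_dvd_prime_iff_eq hp (by norm_num)).1 h] at h4; norm_num at h4
    · rw [(Nat.prime_dvd_prime_iff_eq hp (by norm_num)).1 h] at h4; norm_num at h4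

theorem hasMultiplier : Cfsg.HasCyclicSchurMultiplier Spor.Co1 2 := by
  haveI : Finite Co0 := Nat.finite_of_card_ne_zero (by
    rw [show Nat.card Co0 = 8315553613086720000 from card_Co0]; norm_num)
  have hker : Co1Aut.mk.ker = Subgroup.center Co0 := QuotientGroup.ker_mk' _
  have hcard : Nat.card (Subgroup.center Co0) = 2 := by
    have h : (Subgroup.center Co0 : Set Co0) = {1, negOne} := by
      ext g; simp [mem_center_iff]
    rw [← SetLike.coe_sort_coe, Nat.card_coe_set_eq, h, Set.ncard_pair (Ne.symm negOne_ne_one)]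
  refine hasCyclic_of_bound (MulEquiv.refl Spor.Co1) (fun Δ _ _ τ hτ => bound Δ τ hτ) two_ne_zero
    ⟨Co0, inferInstance, inferInstance, Co1Aut.mk,
      ⟨Co1Aut.mk_surjective, hker.le, by rw [commutator_Co0]; exact le_top⟩, ?_, ?_⟩
  · rw [hker]
    haveI : Fact (Nat.Prime 2) := ⟨Nat.prime_two⟩
    exact isCyclic_of_prime_card hcard
  · rw [hker, hcard]

end Cfsg.Agent.H3.Co1Mult
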